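import Cfsg.Agent.H934.RowTwD4

/-!
# `³D₄(q)`: the indices and the orders of the maximal parabolic subgroups (helper656, for S2452)

* `index_PJ0` : `(q⁸ + q⁴ + 1)(q³ + 1)`; `index_PJ1` : `(q⁸ + q⁴ + 1)(q + 1)`; `index_B`;
* `card_Upos` : `|U| = q¹²`; `card_PJ0`, `card_PJ1`, `card_B`;
* `factorization_card` : `|³D₄(q)|_p = q¹²`.
-/

set_option autoImplicit false
set_option linter.unusedSectionVars false

namespace Cfsg.Agent.H656.TW

open CoxeterSystem Cfsg.Agent.ChevalleyStructure.CoxeterGeom Cfsg.Agent.Tits.Roots Cfsg.Agent.Tits.Core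
  Cfsg.Agent.Tits.Exchange Cfsg.Agent.Nodes.Reps Cfsg.Agent.Nodes.BNOf Cfsg.Agent.Nodes.StabComb
  Cfsg.Agent.Nodes.Bruhat Cfsg.Agent.Nodes.OppDec Cfsg.Agent.Nodes.LeviDec Cfsg.Agent.Nodes.NormalForm
open Cfsg.Lie Cfsg.Agent.ChevalleyStructure Cfsg.Agent.Nodes.RGDTwD4 Cfsg.Agent.H35.ExcIdx Cfsg.Agent.H35.Poin
open Cfsg.Agent.Nodes.RGDTwGen Cfsg.Agent.Nodes.RGDChev Cfsg.Agent.Nodes.RGDFold
open Cfsg.Agent.ChevalleyStructure.TwistedU Cfsg.Agent.ChevalleyStructure.D4U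
open Cfsg.Agent.H934 Cfsg.Agent.H934.RowTwD4

universe u

variable {K : Type u} [Field K] [Fintype K] {q : ℕ} {φ : K →+* K}

/-- the order of the torus -/
theorem card_T' (hq : IsPrimePow q) (hK : Fintype.card K = q ^ 3) :
    Nat.card ↥(T K q) = (q - 1) ^ 2 * (q ^ 2 + q + 1) := by
  rw [← Cfsg.Agent.S1106.result hq hK]
  exact Nat.card_congr (Subgroup.subgroupOfEquivOfLe inf_le_right).toEquiv

theorem card_tw (hq : IsPrimePow q) (hK : Fintype.card K = q ^ 3) :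
    Nat.card ↥(twistedD4 K q) = q ^ 12 * ((q ^ 2 - 1) * (q ^ 6 - 1) * (q ^ 8 + q ^ 4 + 1)) := by
  rw [Cfsg.Agent.S1067.result hq hK]
  ring

/-- the characteristic -/
theorem exists_char (hq : IsPrimePow q) (hK : Fintype.card K = q ^ 3) :
    ∃ (p f : ℕ), p.Prime ∧ f ≠ 0 ∧ q = p ^ f ∧ CharP K p := by
  obtain ⟨p, hcp⟩ := CharP.exists K
  have hp' : Fact p.Prime := ⟨CharP.char_is_prime K p⟩
  obtain ⟨r, f, hr, hf, hrf⟩ := hq
  have hr' : r.Prime := hr.nat_prime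
  have hpr : p = r := by
    obtain ⟨n, hpp, hn⟩ := FiniteField.card K p
    have h3 : p ∣ r := by
      have h4 : p ∣ Fintype.card K := by rw [hn]; exact dvd_pow_self p n.pos.ne'
      rw [hK, ← hrf, ← pow_mul] at h4
      exact hpp.dvd_of_dvd_pow h4
    exact (Nat.prime_dvd_prime_iff_eq hpp hr').1 h3
  subst hpr
  exact ⟨p, f, hr', hf.ne', hrf.symm, hcp⟩

theorem not_dvd_P {p q : ℕ} (hp : p.Prime) (hpq : p ∣ q) (hq : 1 ≤ q) :
    ¬ p ∣ (q ^ 2 - 1) * (q ^ 6 - 1) * (q ^ 8 + q ^ 4 + 1) := by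
  have hsub : ∀ k, k ≠ 0 → ¬ p ∣ q ^ k - 1 := by
    intro k hk h3
    have h4 : p ∣ q ^ k := dvd_pow hpq hk
    have h5 : 1 ≤ q ^ k := Nat.one_le_pow _ _ hq
    have h6 := Nat.dvd_sub h4 h3
    rw [Nat.sub_sub_self h5] at h6
    exact hp.one_lt.ne' (Nat.dvd_one.1 h6)
  rw [hp.dvd_mul, hp.dvd_mul]
  rintro ((h3 | h3) | h3)
  · exact hsub 2 (by norm_num) h3
  · exact hsub 6 (by norm_num) h3
  · have h4 : p ∣ q ^ 8 + q ^ 4 := dvd_add (dvd_pow hpq (by norm_num)) (dvd_pow hpq (by norm_num))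
    exact hp.one_lt.ne' (Nat.dvd_one.1 ((Nat.dvd_add_right h4).1 h3))

/-- **`|³D₄(q)|_p = q¹²`.** -/
theorem factorization_card (hq : IsPrimePow q) (hK : Fintype.card K = q ^ 3) {p f : ℕ} (hp : p.Prime) (hf : q = p ^ f)
    (hf0 : f ≠ 0) : (Nat.card ↥(twistedD4 K q)).factorization p = 12 * f := by
  have h1 := not_dvd_P hp (show p ∣ q by rw [hf]; exact dvd_pow_self p hf0) hq.pos
  have h0 : (q ^ 2 - 1) * (q ^ 6 - 1) * (q ^ 8 + q ^ 4 + 1) ≠ 0 := fun h => h1 (by rw [h]; exact dvd_zero _)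
  rw [card_tw hq hK, Nat.factorization_mul (pow_pos hq.pos _).ne' h0, Finsupp.add_apply,
    Nat.factorization_eq_zero_of_not_dvd h1, add_zero, hf, ← pow_mul, Nat.Prime.factorization_pow hp,
    Finsupp.single_eq_same, mul_comm]

theorem index_gen (hq : IsPrimePow q) (hK : Fintype.card K = q ^ 3) (hφ : ∀ x, φ x = x ^ q) {J : Set (Fin 2)} {N : ℕ}
    (hN : Nat.card ↥(PJ CoxeterMatrix.G₂.toCoxeterSystem isCartan (T K q) (X φ q) J) =
      N * Nat.card ↥(RGD.B CoxeterMatrix.G₂.toCoxeterSystem isCartan (T K q) (X φ q))) :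
    (PJ CoxeterMatrix.G₂.toCoxeterSystem isCartan (T K q) (X φ q) J).index * N *
      ((q - 1) ^ 2 * (q ^ 2 + q + 1)) = (q ^ 2 - 1) * (q ^ 6 - 1) * (q ^ 8 + q ^ 4 + 1) := by
  obtain ⟨p, f, hp, hf, rfl, hc⟩ := exists_char hq hK
  have hp' : Fact p.Prime := ⟨hp⟩
  have : Finite (GL chevD4.Idx K) := inferInstance
  have hfin : Finite CoxeterMatrix.G₂.Group := Nodes.RGDFold.finite_W (hp := Cfsg.Agent.Nodes.RGDTwD4.hp)
    CoxeterMatrix.G₂.toCoxeterSystem isCartan foldData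
  have hR := rgd CoxeterMatrix.G₂.toCoxeterSystem hK hφ p
  have hG1 : Nodes.RGDLib.G1 CoxeterMatrix.G₂.toCoxeterSystem isCartan (X φ (p ^ f)) = ⊤ := G1_eq_top _ hK hφ
  have hGG : GG CoxeterMatrix.G₂.toCoxeterSystem isCartan (T K (p ^ f)) (X φ (p ^ f)) = ⊤ := by
    rw [eq_top_iff, ← hG1]
    exact le_sup_right
  have hT : 1 * Nat.card ↥(T K (p ^ f)) = (p ^ f - 1) ^ 2 * ((p ^ f) ^ 2 + p ^ f + 1) := by
    rw [one_mul, card_T' hq hK]
  have hS : 1 * Nat.card ↥(twistedD4 K (p ^ f)) =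
      p ^ (f * 12) * (((p ^ f) ^ 2 - 1) * ((p ^ f) ^ 6 - 1) * ((p ^ f) ^ 8 + (p ^ f) ^ 4 + 1)) := by
    rw [one_mul, card_tw hq hK, pow_mul]
  exact index_eq hR hGG hN (d := 1) (fun h => hp.one_lt.ne' (Nat.dvd_one.1 h)) hT hS
    (not_dvd_P hp (dvd_pow_self p hf) hq.pos)

theorem arithQ {q a : ℕ} (hq : 2 ≤ q) :
    (q - 1) ^ 2 * (q ^ 2 + q + 1) * ((q ^ 8 + q ^ 4 + 1) * (q + 1) * (q ^ 3 + 1)) =
      (q ^ 2 - 1) * (q ^ 6 - 1) * (q ^ 8 + q ^ 4 + 1) ∧ 0 < (q - 1) ^ 2 * (q ^ 2 + q + 1) ∧ 0 ≤ a := by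
  refine ⟨?_, by have : 0 < q - 1 := by omega
                 positivity, Nat.zero_le _⟩
  have h1 : 1 ≤ q := by omega
  have h2 : 1 ≤ q ^ 2 := Nat.one_le_pow _ _ (by omega)
  have h6 : 1 ≤ q ^ 6 := Nat.one_le_pow _ _ (by omega)
  zify [h1, h2, h6]
  ring

theorem index_B (hq : IsPrimePow q) (hK : Fintype.card K = q ^ 3) (hφ : ∀ x, φ x = x ^ q) :
    (RGD.B CoxeterMatrix.G₂.toCoxeterSystem isCartan (T K q) (X φ q)).index =
      (q ^ 8 + q ^ 4 + 1) * (q + 1) * (q ^ 3 + 1) := by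
  have h1 := index_gen hq hK hφ (J := ∅) (N := 1) (by rw [PJ_empty, one_mul])
  rw [PJ_empty, mul_one] at h1
  obtain ⟨h2, h3, -⟩ := arithQ (q := q) (a := 0) hq.two_le
  refine Nat.eq_of_mul_eq_mul_left h3 ?_
  rw [h2, mul_comm, h1]

theorem path0 : PathOK CoxeterMatrix.G₂ [0] [0] [] 0 := by constructor <;> decide +kernel

theorem card_PJ0_B (hq : IsPrimePow q) (hK : Fintype.card K = q ^ 3) (hφ : ∀ x, φ x = x ^ q) :
    Nat.card ↥(PJ CoxeterMatrix.G₂.toCoxeterSystem isCartan (T K q) (X φ q) {0}) =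
      (1 + q) * Nat.card ↥(RGD.B CoxeterMatrix.G₂.toCoxeterSystem isCartan (T K q) (X φ q)) := by
  obtain ⟨p, f, hp, hf, rfl, hc⟩ := exists_char hq hK
  have hp' : Fact p.Prime := ⟨hp⟩
  have : Finite (GL chevD4.Idx K) := inferInstance
  have hfin : Finite CoxeterMatrix.G₂.Group := Nodes.RGDFold.finite_W (hp := Cfsg.Agent.Nodes.RGDTwD4.hp)
    CoxeterMatrix.G₂.toCoxeterSystem isCartan foldData
  have hR := rgd CoxeterMatrix.G₂.toCoxeterSystem hK hφ p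
  have h1 := card_step hR path0 (y := p ^ f) (fun i hi => by
    rw [List.mem_singleton] at hi
    rw [card_X hφ hq.one_lt hK, hi]
    rfl) (card_nil hR)
  have h2 : ({j | j ∈ ([0] : List (Fin 2))} : Set (Fin 2)) = {0} := by ext j; simp
  rw [h2] at h1
  rw [h1]
  simp [FA, Finset.sum_range_succ]

theorem card_PJ1_B (hq : IsPrimePow q) (hK : Fintype.card K = q ^ 3) (hφ : ∀ x, φ x = x ^ q) :
    Nat.card ↥(PJ CoxeterMatrix.G₂.toCoxeterSystem isCartan (T K q) (X φ q) {1}) =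
      (1 + q ^ 3) * Nat.card ↥(RGD.B CoxeterMatrix.G₂.toCoxeterSystem isCartan (T K q) (X φ q)) := by
  obtain ⟨p, f, hp, hf, rfl, hc⟩ := exists_char hq hK
  have hp' : Fact p.Prime := ⟨hp⟩
  have : Finite (GL chevD4.Idx K) := inferInstance
  have hfin : Finite CoxeterMatrix.G₂.Group := Nodes.RGDFold.finite_W (hp := Cfsg.Agent.Nodes.RGDTwD4.hp)
    CoxeterMatrix.G₂.toCoxeterSystem isCartan foldData
  have hR := rgd CoxeterMatrix.G₂.toCoxeterSystem hK hφ p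
  have h1 := card_step hR path1 (y := (p ^ f) ^ 3) (fun i hi => by
    rw [List.mem_singleton] at hi
    rw [card_X hφ hq.one_lt hK, hi]
    rfl) (card_nil hR)
  have h2 : ({j | j ∈ ([1] : List (Fin 2))} : Set (Fin 2)) = {1} := by ext j; simp
  rw [h2] at h1
  rw [h1]
  simp [FA, Finset.sum_range_succ]

/-- **The index of `P₀`** (Levi subgroup `SL₂(q) (q³ - 1)`). -/
theorem index_PJ0 (hq : IsPrimePow q) (hK : Fintype.card K = q ^ 3) (hφ : ∀ x, φ x = x ^ q) :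
    (PJ CoxeterMatrix.G₂.toCoxeterSystem isCartan (T K q) (X φ q) {0}).index =
      (q ^ 8 + q ^ 4 + 1) * (q ^ 3 + 1) := by
  have h1 := index_gen hq hK hφ (card_PJ0_B hq hK hφ)
  obtain ⟨h2, h3, -⟩ := arithQ (q := q) (a := 0) hq.two_le
  refine Nat.eq_of_mul_eq_mul_left (Nat.mul_pos h3 (show 0 < q + 1 by omega)) ?_
  calc _ = _ * (1 + q) * ((q - 1) ^ 2 * (q ^ 2 + q + 1)) := by ring
    _ = _ := h1
    _ = _ := h2.symm
    _ = _ := by ring

/-- **The index of `P₁`** (Levi subgroup `SL₂(q³) (q - 1)`). -/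
theorem index_PJ1 (hq : IsPrimePow q) (hK : Fintype.card K = q ^ 3) (hφ : ∀ x, φ x = x ^ q) :
    (PJ CoxeterMatrix.G₂.toCoxeterSystem isCartan (T K q) (X φ q) {1}).index =
      (q ^ 8 + q ^ 4 + 1) * (q + 1) := by
  have h1 := index_gen hq hK hφ (card_PJ1_B hq hK hφ)
  obtain ⟨h2, h3, -⟩ := arithQ (q := q) (a := 0) hq.two_le
  refine Nat.eq_of_mul_eq_mul_left (Nat.mul_pos h3 (show 0 < q ^ 3 + 1 by positivity)) ?_
  calc _ = _ * (1 + q ^ 3) * ((q - 1) ^ 2 * (q ^ 2 + q + 1)) := by ring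
    _ = _ := h1
    _ = _ := h2.symm
    _ = _ := by ring

/-- the order of `B` -/
theorem card_B (hq : IsPrimePow q) (hK : Fintype.card K = q ^ 3) (hφ : ∀ x, φ x = x ^ q) :
    Nat.card ↥(RGD.B CoxeterMatrix.G₂.toCoxeterSystem isCartan (T K q) (X φ q)) =
      q ^ 12 * ((q - 1) ^ 2 * (q ^ 2 + q + 1)) := by
  have h1 := Subgroup.index_mul_card (RGD.B CoxeterMatrix.G₂.toCoxeterSystem isCartan (T K q) (X φ q))
  obtain ⟨h2, h3, -⟩ := arithQ (q := q) (a := 0) hq.two_le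
  rw [index_B hq hK hφ, card_tw hq hK, ← h2] at h1
  refine Nat.eq_of_mul_eq_mul_left (show 0 < (q ^ 8 + q ^ 4 + 1) * (q + 1) * (q ^ 3 + 1) by positivity) ?_
  rw [h1]
  ring

/-- the order of `U` -/
theorem card_Upos (hq : IsPrimePow q) (hK : Fintype.card K = q ^ 3) (hφ : ∀ x, φ x = x ^ q) :
    Nat.card ↥(RGD.Sup (X φ q) (RGD.Pos CoxeterMatrix.G₂.toCoxeterSystem isCartan)) = q ^ 12 := by
  have h0 := card_B hq hK hφ
  have h5 := card_T' hq hK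
  obtain ⟨-, h3, -⟩ := arithQ (q := q) (a := 0) hq.two_le
  obtain ⟨p, f, hp, hf, rfl, hc⟩ := exists_char hq hK
  have hp' : Fact p.Prime := ⟨hp⟩
  have : Finite (GL chevD4.Idx K) := inferInstance
  have hfin : Finite CoxeterMatrix.G₂.Group := Nodes.RGDFold.finite_W (hp := Cfsg.Agent.Nodes.RGDTwD4.hp)
    CoxeterMatrix.G₂.toCoxeterSystem isCartan foldData
  have hR := rgd CoxeterMatrix.G₂.toCoxeterSystem hK hφ p
  rw [card_B' hR, h5] at h0
  exact Nat.eq_of_mul_eq_mul_right h3 h0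

end Cfsg.Agent.H656.TW
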